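-- Generated: the Schur multiplier of `L34` from a labelled coset table.
import Cfsg.Agent.Lib.KnownSimple.L34Lab.ChecksA
import Cfsg.Agent.Lib.KnownSimple.L34Lab.ChecksB0
import Cfsg.Agent.Lib.KnownSimple.L34Lab.ChecksB1
import Cfsg.Agent.Lib.KnownSimple.LabFinalA
import Cfsg.Agent.Lib.KnownSimple.LabMat
import Cfsg.Agent.Lib.KnownSimple.LabField

set_option autoImplicit false
set_option maxRecDepth 100000

universe u

namespace Cfsg.Agent.Lib.KnownSimple.L34Lab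

open Cfsg.Agent.Lib.KnownSimple.Lab Subgroup 

def Uw : List ℕ := [0, 1]
def Vw : List ℕ := []
def gwx : List ℕ := [1, 0, 1, 0, 1, 0, 1, 0, 3, 0, 3, 3, 0, 3, 3, 2, 3, 2, 1, 2, 1, 2, 1, 2, 1, 2, 3, 3]
def gwy : List ℕ := [0, 1, 0, 1, 1, 0, 1, 1, 0, 3, 3, 0, 1, 2, 3, 2, 3, 2, 3, 2, 3, 2]
def gw (a : ℕ) : List ℕ := [gwx, gwy].getD a []

open Cfsg.Agent.Lib.KnownSimple.LabMat Cfsg.Agent.Lib.KnownSimple.LabField in
/-- The letters. -/
def Ls : List (List ℕ) := [[3, 1, 0, 3, 3, 0, 0, 0, 1], [0, 0, 1, 2, 3, 2, 3, 2, 1], [3, 1, 0, 3, 3, 0, 0, 0, 1], [0, 2, 3, 3, 3, 2, 1, 0, 0]]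
open Cfsg.Agent.Lib.KnownSimple.LabMat Cfsg.Agent.Lib.KnownSimple.LabField in
/-- A word is trivial. -/
def chk (w : List ℕ) : Bool := chkS 3 (wordC add4 mul4 3 Ls w)
open Cfsg.Agent.Lib.KnownSimple.LabMat Cfsg.Agent.Lib.KnownSimple.LabField in
/-- A word is not trivial. -/
def chkne (w : List ℕ) : Bool := chkNS 3 4 (wordC add4 mul4 3 Ls w)


theorem hU4 : ∀ a ∈ Uw, a < 2 * 2 := by decide +kernel
theorem hV4 : ∀ a ∈ Vw, a < 2 * 2 := by decide +kernel

theorem hgw1 : ∀ a < 2, ∀ b ∈ gw a, b < 2 * 2 := by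
  intro a ha
  interval_cases a
  · exact (by decide +kernel : ∀ b ∈ gwx, b < 2 * 2)
  · exact (by decide +kernel : ∀ b ∈ gwy, b < 2 * 2)

theorem hgw3 : ∀ a < 2, balanced 2 (gw a) = true := by
  intro a ha
  interval_cases a <;> decide +kernel

theorem hT : ∀ a < D.k, ∀ i < D.n, D.T a i < D.n := by
  intro a ha i hi
  have ha' : a < 4 := ha
  have hi' : i < 2880 := hi
  show D.T a i < 2880
  interval_cases a
  · exact Nat.le_of_ble_eq_true (hT0 i hi')
  · exact Nat.le_of_ble_eq_true (hT1 i hi')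
  · exact Nat.le_of_ble_eq_true (hT2 i hi')
  · exact Nat.le_of_ble_eq_true (hT3 i hi')

theorem hRchk : allI (fun ρ => (Rget ρ).all (fun a => Nat.blt a 4)) 0 12 = true := by decide +kernel

theorem hR : ∀ ρ < D.r, ∀ a ∈ D.R ρ, a < D.k := by
  intro ρ hρ a ha
  have h1 := of_allI hRchk ρ (Nat.zero_le _) hρ
  exact Nat.le_of_ble_eq_true (List.all_eq_true.mp h1 a ha)

theorem hR4 : ∀ ρ < D.r, ∀ a ∈ D.R ρ, a < 4 := hR

theorem hp : ∀ j, 0 < j → j < D.n → D.par j < j ∧ D.gn j < D.k ∧ D.T (D.gn j) (D.par j) = j := by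
  intro j h0 hj
  have h := hTree j hj
  simp only [Bool.or_eq_true, Bool.and_eq_true, Nat.beq_eq, Nat.blt_eq] at h
  rcases h with h | ⟨⟨h1, h2⟩, h3⟩
  · omega
  · exact ⟨h1, h2, h3⟩

theorem hZ : ∀ ρ < D.r, D.Z ρ = true → ∃ a < 2, D.R ρ = [a, a + 2] ∨ D.R ρ = [a + 2, a] ∨
    D.R ρ = (a + 2) :: gw a := by
  intro ρ hρ h
  have hρ' : ρ < 12 := hρ
  interval_cases ρ
  · exact ⟨0, by norm_num, Or.inr (Or.inl rfl)⟩
  · exact ⟨0, by norm_num, Or.inl rfl⟩
  · exact ⟨1, by norm_num, Or.inr (Or.inl rfl)⟩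
  · exact ⟨1, by norm_num, Or.inl rfl⟩
  · exact absurd h (by decide +kernel)
  · exact absurd h (by decide +kernel)
  · exact absurd h (by decide +kernel)
  · exact absurd h (by decide +kernel)
  · exact absurd h (by decide +kernel)
  · exact absurd h (by decide +kernel)
  · exact ⟨0, by norm_num, Or.inr (Or.inr rfl)⟩
  · exact ⟨1, by norm_num, Or.inr (Or.inr rfl)⟩

theorem hPkchk : allI (fun t => (Nat.blt (D.P t).1 4 && Nat.blt (D.P t).2 2880) ||
    (Nat.ble 4 (D.P t).1 && Nat.blt ((D.P t).1 - 4) 12 && Nat.beq (D.P t).2 0)) 0 6 = true := by decide +kernel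

theorem hPk : ∀ t < D.m, ((D.P t).1 < D.k ∧ (D.P t).2 < D.n) ∨
    (D.k ≤ (D.P t).1 ∧ (D.P t).1 - D.k < D.r ∧ (D.P t).2 = 0) := by
  intro t ht
  have := of_allI hPkchk t (Nat.zero_le _) ht
  simp only [Bool.or_eq_true, Bool.and_eq_true, Nat.beq_eq, Nat.blt_eq, Nat.ble_eq, and_assoc] at this
  exact this

theorem hPLchk : allI (fun t => vbeq (D.L (D.P t).1 (D.P t).2) (vunit 6 t)) 0 6 = true := by decide +kernel

theorem hPL : ∀ t < D.m, vbeq (D.L (D.P t).1 (D.P t).2) (vunit D.m t) = true := fun t ht =>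
  of_allI hPLchk t (Nat.zero_le _) ht

theorem hvar : ∀ a < D.k, ∀ i < D.n, Dat.varOK D a i = true := by
  intro a ha i hi
  have ha' : a < 4 := ha
  have hi' : i < 2880 := hi
  interval_cases a
  · exact hV0 i hi'
  · exact hV1 i hi'
  · exact hV2 i hi'
  · exact hV3 i hi'

theorem hrvchk : allI (fun ρ => Dat.relOK D ρ) 0 12 = true := by decide +kernel

theorem hrv : ∀ ρ < D.r, Dat.relOK D ρ = true := fun ρ hρ => of_allI hrvchk ρ (Nat.zero_le _) hρ

def rels : List (ℕ × ℕ) := [(10, 0), (11, 0), (6, 907), (6, 645), (0, 2844), (0, 900)]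

theorem hrelschk : rels.all (fun x => Dat.relClosed D x.1 x.2) = true := by decide +kernel

theorem hrels : ∀ x ∈ rels, Dat.relClosed D x.1 x.2 = true := fun x hx => List.all_eq_true.mp hrelschk x hx

def gv0 : List ℤ := [792, 0, 66, 1533, (-1067), (-917)]
def wN0 : List ℤ := [0, (-40), (-916), 2, (-6), (-135)]
def gv1 : List ℤ := [4536, 0, 378, 8778, (-6111), (-5250)]
def wN1 : List ℤ := [0, (-252), (-5268), 13, 10, (-837)]
def gv2 : List ℤ := [6048, 0, 504, 11704, (-8148), (-7000)]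
def wN2 : List ℤ := [0, (-252), (-5268), 13, 10, (-837)]
def gv3 : List ℤ := [2592, 0, 216, 5016, (-3492), (-3000)]
def wN3 : List ℤ := [0, (-252), (-5268), 13, 10, (-837)]
def gvs : List (List ℤ) := [gv0, gv1, gv2, gv3]
def bL : List (List ℤ) := [[82, (-1330), 1330, (-798)], [134, (-2170), 2170, (-1302)], [(-424), 6860, (-6860), 4116], [36, (-580), 580, (-348)], [58, (-945), 945, (-567)], [33, (-525), 525, (-315)]]
def WL : List (List ℤ) := [[(-2), 22, 2098, 0, 151, 122], [(-1), 40, 3471, 0, 247, 206], [1, (-131), (-11060), 0, (-784), (-661)], [(-1), 10, 968, 0, 70, 56], [(-2), 14, 1432, 0, 104, 82], [(-1), 10, 968, 0, 70, 56]]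

theorem hfinchk : allI (fun u => vbeq (vunit 6 u) (vadd (lin (bL.getD u []) gvs)
    (lin (WL.getD u []) (rels.map fun x => Dat.relRow D x.1 x.2)))) 0 6 = true := by decide +kernel

theorem hfin : ∀ u < D.m, vbeq (vunit D.m u) (vadd (lin (bL.getD u []) gvs)
    (lin (WL.getD u []) (rels.map fun x => Dat.relRow D x.1 x.2))) = true := fun u hu =>
  of_allI hfinchk u (Nat.zero_le _) hu

theorem hN0 : vbeq (vscale ((4 : ℕ) : ℤ) gv0) (lin wN0 (rels.map fun x => Dat.relRow D x.1 x.2)) = true := by decide +kernel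
theorem hN1 : vbeq (vscale ((4 : ℕ) : ℤ) gv1) (lin wN1 (rels.map fun x => Dat.relRow D x.1 x.2)) = true := by decide +kernel
theorem hN2 : vbeq (vscale ((3 : ℕ) : ℤ) gv2) (lin wN2 (rels.map fun x => Dat.relRow D x.1 x.2)) = true := by decide +kernel
theorem hN3 : vbeq (vscale ((7 : ℕ) : ℤ) gv3) (lin wN3 (rels.map fun x => Dat.relRow D x.1 x.2)) = true := by decide +kernel

/-- The labels. -/
def lab (a i : ℕ) : ZMod 3 × ZMod 4 × ZMod 4 := (((lN0 a i : ℕ) : ZMod 3), (((lN1 a i : ℕ) : ZMod 4), ((lN2 a i : ℕ) : ZMod 4)))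

/-- The values of the relators. -/
def vv (ρ : ℕ) : ZMod 3 × ZMod 4 × ZMod 4 := (((nth vvL0 ρ : ℕ) : ZMod 3), (((nth vvL1 ρ : ℕ) : ZMod 4), ((nth vvL2 ρ : ℕ) : ZMod 4)))

theorem hRL : ∀ ρ < D.r, ∀ i < D.n, walk D.T (D.R ρ) i = i ∧ Dat.pathSum lab D.T (D.R ρ) i = vv ρ := by
  intro ρ hρ i hi
  have hρ' : ρ < 12 := hρ
  have hi' : i < 2880 := hi
  interval_cases ρ
  · exact (of_low_pair (of_lowOK (hL0c0 i hi')) (of_low_pair (of_lowOK (hL0c1 i hi')) (of_lowOK (hL0c2 i hi'))))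
  · exact (of_low_pair (of_lowOK (hL1c0 i hi')) (of_low_pair (of_lowOK (hL1c1 i hi')) (of_lowOK (hL1c2 i hi'))))
  · exact (of_low_pair (of_lowOK (hL2c0 i hi')) (of_low_pair (of_lowOK (hL2c1 i hi')) (of_lowOK (hL2c2 i hi'))))
  · exact (of_low_pair (of_lowOK (hL3c0 i hi')) (of_low_pair (of_lowOK (hL3c1 i hi')) (of_lowOK (hL3c2 i hi'))))
  · exact (of_low_pair (of_lowOK (hL4c0 i hi')) (of_low_pair (of_lowOK (hL4c1 i hi')) (of_lowOK (hL4c2 i hi'))))
  · exact (of_low_pair (of_lowOK (hL5c0 i hi')) (of_low_pair (of_lowOK (hL5c1 i hi')) (of_lowOK (hL5c2 i hi'))))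
  · exact (of_low_pair (of_lowOK (hL6c0 i hi')) (of_low_pair (of_lowOK (hL6c1 i hi')) (of_lowOK (hL6c2 i hi'))))
  · exact (of_low_pair (of_lowOK (hL7c0 i hi')) (of_low_pair (of_lowOK (hL7c1 i hi')) (of_lowOK (hL7c2 i hi'))))
  · exact (of_low_pair (of_lowOK (hL8c0 i hi')) (of_low_pair (of_lowOK (hL8c1 i hi')) (of_lowOK (hL8c2 i hi'))))
  · exact (of_low_pair (of_lowOK (hL9c0 i hi')) (of_low_pair (of_lowOK (hL9c1 i hi')) (of_lowOK (hL9c2 i hi'))))
  · exact (of_low_pair (of_lowOK (hL10c0 i hi')) (of_low_pair (of_lowOK (hL10c1 i hi')) (of_lowOK (hL10c2 i hi'))))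
  · exact (of_low_pair (of_lowOK (hL11c0 i hi')) (of_low_pair (of_lowOK (hL11c1 i hi')) (of_lowOK (hL11c2 i hi'))))

theorem hinv : ∀ a < 2 * 2, ∀ i < D.n, D.T (invL 2 a) (D.T a i) = i ∧
    lab (invL 2 a) (D.T a i) + lab a i = 0 := by
  apply hinv_of_rel'
  intro a ha i hi
  have ha' : a < 4 := ha
  interval_cases a
  · exact (of_low_pair (of_lowOK0 (hL0c0 i hi)) (of_low_pair (of_lowOK0 (hL0c1 i hi)) (of_lowOK0 (hL0c2 i hi))))
  · exact (of_low_pair (of_lowOK0 (hL2c0 i hi)) (of_low_pair (of_lowOK0 (hL2c1 i hi)) (of_lowOK0 (hL2c2 i hi))))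
  · exact (of_low_pair (of_lowOK0 (hL1c0 i hi)) (of_low_pair (of_lowOK0 (hL1c1 i hi)) (of_lowOK0 (hL1c2 i hi))))
  · exact (of_low_pair (of_lowOK0 (hL3c0 i hi)) (of_low_pair (of_lowOK0 (hL3c1 i hi)) (of_lowOK0 (hL3c2 i hi))))

theorem hgz : ∀ a < 2, ∀ i < D.n, walk D.T (gw a) i = D.T a i ∧
    Dat.pathSum lab D.T (gw a) i = lab a i := by
  intro a ha
  have hwalk : ∀ i < D.n, walk D.T (gw a) i < D.n := fun i hi =>
    walk_lt (k := D.k) hT (hgw1 a ha) hi
  have ha2 : a + 2 < 2 * 2 := by omega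
  have ha3 : a < 2 * 2 := by omega
  have e1 : invL 2 a = a + 2 := by unfold invL; rw [if_pos ha]
  have e2 : invL 2 (a + 2) = a := by unfold invL; rw [if_neg (by omega)]; omega
  have h1 := hinv a ha3
  have h2 := hinv (a + 2) ha2
  rw [e1] at h1
  rw [e2] at h2
  refine hgz_of_rel' (s := 2) hwalk h2 h1 ?_
  intro i hi
  interval_cases a
  · exact (of_low_pair (of_lowOK0 (hL10c0 i hi)) (of_low_pair (of_lowOK0 (hL10c1 i hi)) (of_lowOK0 (hL10c2 i hi))))
  · exact (of_low_pair (of_lowOK0 (hL11c0 i hi)) (of_low_pair (of_lowOK0 (hL11c1 i hi)) (of_lowOK0 (hL11c2 i hi))))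

theorem hvals : AddSubgroup.closure (vv '' {ρ | ρ < D.r}) = ⊤ := by
  have hm : ∀ ρ < 12, vv ρ ∈ AddSubgroup.closure (vv '' {ρ | ρ < D.r}) :=
    fun ρ h => AddSubgroup.subset_closure ⟨ρ, h, rfl⟩
  apply closure_top_three
  · rw [show ((1, 0, 0) : ZMod 3 × ZMod 4 × ZMod 4) = vv 5 by decide +kernel]
    exact (hm 5 (by norm_num))
  · rw [show ((0, 1, 0) : ZMod 3 × ZMod 4 × ZMod 4) = vv 7 + vv 7 + vv 7 + vv 9 by decide +kernel]
    exact (add_mem (add_mem (add_mem (hm 7 (by norm_num)) (hm 7 (by norm_num))) (hm 7 (by norm_num))) (hm 9 (by norm_num)))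
  · rw [show ((0, 0, 1) : ZMod 3 × ZMod 4 × ZMod 4) = vv 7 + vv 7 + vv 9 by decide +kernel]
    exact (add_mem (add_mem (hm 7 (by norm_num)) (hm 7 (by norm_num))) (hm 9 (by norm_num)))

def prL : List ℕ := [0, 0, 0, 6, 0, 0]
def peL : List ℕ := [0, 0, 0, 0, 0, 0]
def pcL0 : List ℕ := [0, 0, 0, 1, 0, 0]
def pcL1 : List ℕ := [0, 0, 0, 0, 0, 0]
def pcL2 : List ℕ := [0, 0, 0, 0, 0, 0]
def pc (u : ℕ) : ZMod 3 × ZMod 4 × ZMod 4 := (((nth pcL0 u : ℕ) : ZMod 3), (((nth pcL1 u : ℕ) : ZMod 4), ((nth pcL2 u : ℕ) : ZMod 4)))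

theorem hparW : parWord 2 Uw Vw D.T D.par D.gn (D.P 3).1 (D.P 3).2 (nth prL 3) (nth peL 3) = pw3 := by decide +kernel

theorem hPnon : ¬ (D.P 0).1 < D.k ∧ ¬ (D.P 1).1 < D.k ∧ ¬ (D.P 2).1 < D.k ∧ ¬ (D.P 4).1 < D.k ∧ ¬ (D.P 5).1 < D.k := by decide +kernel

theorem hparL : ∀ u < D.m, (D.P u).1 < D.k → ∀ i < D.n,
    walk D.T (parWord 2 Uw Vw D.T D.par D.gn (D.P u).1 (D.P u).2 (nth prL u) (nth peL u)) i = i ∧
    Dat.pathSum lab D.T
      (parWord 2 Uw Vw D.T D.par D.gn (D.P u).1 (D.P u).2 (nth prL u) (nth peL u)) i = pc u := by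
  intro u hu h i hi
  have hu' : u < 6 := hu
  have hi' : i < 2880 := hi
  interval_cases u
  · exact absurd h hPnon.1
  · exact absurd h hPnon.2.1
  · exact absurd h hPnon.2.2.1
  · rw [hparW]
    exact (of_low_pair (of_lowOK (hLP3c0 i hi')) (of_low_pair (of_lowOK (hLP3c1 i hi')) (of_lowOK (hLP3c2 i hi'))))
  · exact absurd h hPnon.2.2.2.1
  · exact absurd h hPnon.2.2.2.2

theorem hUo : ∀ i < D.n, walk D.T (powW Uw 7) i = i ∧
    Dat.pathSum lab D.T (powW Uw 7) i = (((2 : ℕ) : ZMod 3), (((0 : ℕ) : ZMod 4), ((0 : ℕ) : ZMod 4))) := by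
  intro i hi
  rw [show powW Uw 7 = wU by decide +kernel]
  exact (of_low_pair (of_lowOK (hLUc0 i hi)) (of_low_pair (of_lowOK (hLUc1 i hi)) (of_lowOK (hLUc2 i hi))))

theorem hVo : ∀ i < D.n, walk D.T (powW Vw 1) i = i ∧
    Dat.pathSum lab D.T (powW Vw 1) i = (((0 : ℕ) : ZMod 3), (((0 : ℕ) : ZMod 4), ((0 : ℕ) : ZMod 4))) := by
  intro i hi
  rw [show powW Vw 1 = wV by decide +kernel]
  exact (of_low_pair (of_lowOK (hLVc0 i hi)) (of_low_pair (of_lowOK (hLVc1 i hi)) (of_lowOK (hLVc2 i hi))))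

theorem hVU : ∀ i < D.n, walk D.T (Vw ++ Uw ++ invW 2 Vw ++ invW 2 (powW Uw 1)) i = i ∧
    Dat.pathSum lab D.T (Vw ++ Uw ++ invW 2 Vw ++ invW 2 (powW Uw 1)) i = (((0 : ℕ) : ZMod 3), (((0 : ℕ) : ZMod 4), ((0 : ℕ) : ZMod 4))) := by
  intro i hi
  rw [show Vw ++ Uw ++ invW 2 Vw ++ invW 2 (powW Uw 1) = w3 by decide +kernel]
  exact (of_low_pair (of_lowOK (hLKc0 i hi)) (of_low_pair (of_lowOK (hLKc1 i hi)) (of_lowOK (hLKc2 i hi))))

theorem c_rel : allI (fun ρ => chk (Rget ρ)) 0 12 = true := by decide +kernel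
theorem c_3 : chk (Vw ++ Uw ++ invW 2 Vw ++ invW 2 (powW Uw 1)) = true := by decide +kernel
theorem c_Uo : chk (powW Uw 7) = true := by decide +kernel
theorem c_Une : chkne Uw = true := by decide +kernel
theorem c_p3 : chk pw3 = true := by decide +kernel

section main

variable {G : Type u} [Group G] [Finite G] (g : ℕ → G)

/-- The multiplier, from the letters. -/
theorem main (hgi : ∀ a < 2, g (a + 2) = (g a)⁻¹) (hgen : closure (g '' {a | a < 2 * 2}) = ⊤)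
    (heq : ∀ w : List ℕ, (∀ a ∈ w, a < 4) → chk w = true → wval g w = 1)
    (hne : ∀ w : List ℕ, (∀ a ∈ w, a < 4) → chkne w = true → wval g w ≠ 1)
    (hcardG : Nat.card G = 20160) :
    Cfsg.HasSchurMultiplier G (Multiplicative (ZMod 3 × ZMod 4 × ZMod 4)) := by
  have hcard : Nat.card G = D.n * (7 * 1) := hcardG
  have ho : orderOf (wval g Uw) = 7 := by
    haveI : Fact (Nat.Prime 7) := ⟨by norm_num⟩
    apply orderOf_eq_prime
    · rw [← wval_powW]
      exact heq _ (powW_letters Uw 7 4 hU4) c_Uo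
    · exact hne _ hU4 c_Une
  have ho' : orderOf (wval g Vw) = 1 := by
    rw [show wval g Vw = 1 from rfl]
    exact orderOf_one
  have hVUG : wval g Vw * wval g Uw * (wval g Vw)⁻¹ * (wval g Uw ^ 1)⁻¹ = 1 := by
    have h1 := heq _ (by decide +kernel) c_3
    simp only [wval_append] at h1
    rw [wval_invW g 2 hgi _ hV4, wval_invW g 2 hgi _ (powW_letters Uw 1 4 hU4), wval_powW] at h1
    exact h1
  have hrelG : ∀ ρ < D.r, wval g (D.R ρ) = 1 := by
    intro ρ hρ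
    exact heq _ (hR4 ρ hρ) (of_allI c_rel ρ (Nat.zero_le _) hρ)
  have hgw2 : ∀ a < 2, wval g (gw a) = g a := by
    intro a ha
    interval_cases a
    · have h := hrelG 10 (by decide +kernel)
      rw [show D.R 10 = 2 :: gwx from rfl, wval_cons, show g 2 = (g 0)⁻¹ from hgi 0 (by norm_num)] at h
      exact (inv_mul_eq_one.mp h).symm
    · have h := hrelG 11 (by decide +kernel)
      rw [show D.R 11 = 3 :: gwy from rfl, wval_cons, show g 3 = (g 1)⁻¹ from hgi 1 (by norm_num)] at h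
      exact (inv_mul_eq_one.mp h).symm
  have hparG : ∀ u < D.m, (D.P u).1 < D.k →
      wval g (parWord 2 Uw Vw D.T D.par D.gn (D.P u).1 (D.P u).2 (nth prL u) (nth peL u)) = 1 := by
    intro u hu h
    have hu' : u < 6 := hu
    interval_cases u
    · exact absurd h hPnon.1
    · exact absurd h hPnon.2.1
    · exact absurd h hPnon.2.2.1
    · rw [hparW]
      exact heq _ (by decide +kernel) c_p3
    · exact absurd h hPnon.2.2.2.1
    · exact absurd h hPnon.2.2.2.2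
  have hcop : ∀ (Γ : Type u) [Group Γ] [Finite Γ] (σ : Γ →* G), Cfsg.IsStemExtension σ →
      Nat.Coprime (7 * 1) (Nat.card σ.ker) := by
    intro Γ _ _ σ hσ
    have c7 : Nat.Coprime 7 (Nat.card σ.ker) := (Nat.Prime.coprime_iff_not_dvd (by norm_num)).mpr
      (not_dvd_card_ker hσ (by norm_num) hcardG (by norm_num) (by norm_num) (wval g Uw) (by rw [ho] <;> norm_num))
    rw [show 7 * 1 = 7 ^ 1 by norm_num]
    exact (Nat.Coprime.pow_left 1 c7)
  have hSurj : ∀ (Γ : Type u) [Group Γ] [Finite Γ] (σ : Γ →* G), Cfsg.IsStemExtension σ →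
      ∀ f : List ℤ → σ.ker, (∀ x : σ.ker, x ∈ closure (f '' {v | v ∈ gvs})) →
      (∀ (v : List ℤ) (N : ℤ) (w : List ℤ),
        vbeq (vscale N v) (lin w (rels.map fun x => Dat.relRow D x.1 x.2)) = true → f v ^ N = 1) →
      ∃ π : Multiplicative (ZMod 3 × ZMod 4 × ZMod 4) →* σ.ker, Function.Surjective π := by
    intro Γ _ _ σ hσ f hf1 hf2
    have c7 : Nat.Coprime 7 (Nat.card σ.ker) := (Nat.Prime.coprime_iff_not_dvd (by norm_num)).mpr
      (not_dvd_card_ker hσ (by norm_num) hcardG (by norm_num) (by norm_num) (wval g Uw) (by rw [ho] <;> norm_num))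
    have e0 : f gv0 ^ 4 = 1 := by
      have := hf2 gv0 ((4 : ℕ) : ℤ) wN0 hN0
      rwa [zpow_natCast] at this
    have e1 : f gv1 ^ 4 = 1 := by
      have := hf2 gv1 ((4 : ℕ) : ℤ) wN1 hN1
      rwa [zpow_natCast] at this
    have e2 : f gv2 ^ 3 = 1 := by
      have := hf2 gv2 ((3 : ℕ) : ℤ) wN2 hN2
      rwa [zpow_natCast] at this
    have e3 : f gv3 ^ 7 = 1 := by
      have := hf2 gv3 ((7 : ℕ) : ℤ) wN3 hN3
      rwa [zpow_natCast] at this
    have r3 : f gv3 = 1 := eq_one_of_coprime e3 (by rw [show 7 = 7 ^ 1 by norm_num]; exact Nat.Coprime.pow_left 1 c7)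
    have hgen' : ∀ x : σ.ker, x ∈ closure ({f gv2, f gv0, f gv1} : Set σ.ker) := by
      intro x
      refine (show closure (f '' {v | v ∈ gvs}) ≤ _ from ?_) (hf1 x)
      rw [closure_le]
      rintro _ ⟨v, hv, rfl⟩
      simp only [Set.mem_ofPred_eq, gvs, List.mem_cons, List.not_mem_nil, or_false] at hv
      rcases hv with rfl | rfl | rfl | rfl
      · exact subset_closure (by simp)
      · exact subset_closure (by simp)
      · exact subset_closure (by simp)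
      · rw [r3]; exact one_mem _
    have hC : ∀ x y : σ.ker, x * y = y * x := fun x y => Subtype.ext (by
      have := Subgroup.mem_center_iff.mp (hσ.2.1 x.2) (y : Γ)
      exact this.symm)
    exact surj_three hC 3 4 4 _ _ _ e2 e0 e1 hgen'
  exact final_A D 2 rfl (by decide +kernel) g hgi hgen Uw Vw hU4 hV4 7 1 1 ho ho' (by norm_num) hcard hVUG
    gw hgw1 hgw2 hgw3 hT hR hp hrelG hZ hPk hPL hvar hrv rels hrels gvs (fun u => bL.getD u []) (fun u => WL.getD u [])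
    hfin hcop hSurj lab hinv vv hRL hvals hgz _ _ _ hUo hVo hVU (nth prL) (nth peL) pc hparG hparL

end main

end Cfsg.Agent.Lib.KnownSimple.L34Lab
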